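import Mathlib
import Cfsg.Agent.Lib.Helper60.CdAct

/-!
# An action lemma for Isaacs 12.11
-/

set_option autoImplicit false
set_option linter.unusedSectionVars false

namespace Cfsg.Agent.Lib.Helper60.Cd

/-- `G/A` of order `p²` acting faithfully on an abelian group `V` so that every point has a
stabiliser strictly larger than `A`: then `[V, G]` is cyclic of order `p`. -/
theorem exists_center_dir {G V : Type*} [Group G] [Finite G] [CommGroup V] (φ : G →* MulAut V)
    (S : V → Subgroup G) (hS : ∀ v g, g ∈ S v ↔ φ g v = v) (p : ℕ) (hp : p.Prime)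
    (A : Subgroup G) (hAi : A.index = p ^ 2) (hA : ∀ v, A ≤ S v)
    (hnor : ∀ H : Subgroup G, A ≤ H → H.Normal)
    (hidx : ∀ v, S v = ⊤ ∨ (S v).index = p) (hfaith : ∀ g, g ∉ A → ∃ v, g ∉ S v) :
    ∃ μ : V, μ ≠ 1 ∧ μ ^ p = 1 ∧ ∀ v g, φ g v * v⁻¹ ∈ Subgroup.zpowers μ := by
  have hp1 : p ≠ 1 := hp.one_lt.ne'
  have hpp : p ^ 2 ≠ p := by
    intro h
    have : p * p = p * 1 := by rw [mul_one, ← sq]; exact h
    exact hp1 (Nat.eq_of_mul_eq_mul_left hp.pos this)
  have hidx' : ∀ v, S v ≠ ⊤ → (S v).index = p := fun v hv => (hidx v).resolve_left hv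
  have key : ∀ x s t, s ∈ S x → φ s (φ t x) = φ t x := by
    intro x s t hs
    have h1 : t⁻¹ * s * t ∈ S x := by
      have := (hnor (S x) (hA x)).conj_mem s hs t⁻¹
      simpa using this
    have h2 : s * t = t * (t⁻¹ * s * t) := by group
    calc φ s (φ t x) = φ (s * t) x := by rw [map_mul]; rfl
      _ = φ (t * (t⁻¹ * s * t)) x := by rw [← h2]
      _ = φ t (φ (t⁻¹ * s * t) x) := by rw [map_mul]; rfl
      _ = φ t x := by rw [(hS x _).mp h1]
  -- the subgroup lemma
  have SL : ∀ μ : V, (∀ g, φ g μ = μ) → ∀ f, (S f).index = p → ∀ t, t ∉ S f →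
      φ t f * f⁻¹ ∈ Subgroup.zpowers μ → ∀ g, φ g f * f⁻¹ ∈ Subgroup.zpowers μ := by
    intro μ hμ f hf t ht htμ
    have hfix : ∀ β ∈ Subgroup.zpowers μ, ∀ g, φ g β = β := by
      intro β hβ g
      obtain ⟨i, rfl⟩ := Subgroup.mem_zpowers_iff.mp hβ
      rw [map_zpow, hμ]
    let W : Subgroup G :=
      { carrier := {g | φ g f * f⁻¹ ∈ Subgroup.zpowers μ}
        one_mem' := by
          show φ 1 f * f⁻¹ ∈ Subgroup.zpowers μ
          rw [map_one]
          simp
        mul_mem' := by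
          intro a b ha hb
          show φ (a * b) f * f⁻¹ ∈ Subgroup.zpowers μ
          have ha' : φ a f * f⁻¹ ∈ Subgroup.zpowers μ := ha
          have hb' : φ b f * f⁻¹ ∈ Subgroup.zpowers μ := hb
          have h1 : φ b f = (φ b f * f⁻¹) * f := by rw [inv_mul_cancel_right]
          have h2 : φ (a * b) f * f⁻¹ = (φ b f * f⁻¹) * (φ a f * f⁻¹) := by
            calc φ (a * b) f * f⁻¹ = φ a (φ b f) * f⁻¹ := by rw [map_mul]; rfl
              _ = φ a ((φ b f * f⁻¹) * f) * f⁻¹ := by rw [← h1]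
              _ = (φ b f * f⁻¹) * (φ a f * f⁻¹) := by
                rw [map_mul, hfix _ hb' a, mul_assoc]
          rw [h2]
          exact Subgroup.mul_mem _ hb' ha'
        inv_mem' := by
          intro a ha
          show φ a⁻¹ f * f⁻¹ ∈ Subgroup.zpowers μ
          have ha' : φ a f * f⁻¹ ∈ Subgroup.zpowers μ := ha
          have h1 : φ a f = (φ a f * f⁻¹) * f := by rw [inv_mul_cancel_right]
          have h2 : f = (φ a f * f⁻¹) * φ a⁻¹ f := by
            calc f = φ a⁻¹ (φ a f) := by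
                  rw [map_inv]; simp
              _ = φ a⁻¹ ((φ a f * f⁻¹) * f) := by rw [← h1]
              _ = _ := by rw [map_mul, hfix _ ha' a⁻¹]
          have h3 : φ a⁻¹ f * f⁻¹ = (φ a f * f⁻¹)⁻¹ := by
            rw [eq_inv_iff_mul_eq_one]
            calc φ a⁻¹ f * f⁻¹ * (φ a f * f⁻¹) = ((φ a f * f⁻¹) * φ a⁻¹ f) * f⁻¹ := by ac_rfl
              _ = 1 := by rw [← h2, mul_inv_cancel]
          rw [h3]
          exact Subgroup.inv_mem _ ha' }
    have hSW : S f ≤ W := by
      intro g hg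
      show φ g f * f⁻¹ ∈ Subgroup.zpowers μ
      rw [(hS f g).mp hg, mul_inv_cancel]
      exact one_mem _
    have htW : t ∈ W := htμ
    have hW : W = ⊤ := by
      have h1 : W.index ∣ p := hf ▸ Subgroup.index_dvd_of_le hSW
      rcases (Nat.dvd_prime hp).mp h1 with h | h
      · exact Subgroup.index_eq_one.mp h
      · exfalso
        have := eq_of_le_of_index_eq hSW (by rw [hf, h])
        exact ht (this ▸ htW)
    intro g
    have : g ∈ W := hW ▸ Subgroup.mem_top g
    exact this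
  -- the transversal lemma
  have T : ∀ f h, (S f).index = p → (S h).index = p → S f ≠ S h →
      ∃ t, t ∉ S f ∧ t ∉ S h ∧ φ t f * f⁻¹ = (φ t h * h⁻¹)⁻¹ := by
    intro f h hf hh hne
    have hinf : S f ⊓ S h ≤ A := by
      have h1 : A ≤ S f ⊓ S h := le_inf (hA f) (hA h)
      have h2 : (S f ⊓ S h).index ∣ p ^ 2 := hAi ▸ Subgroup.index_dvd_of_le h1
      obtain ⟨m, hm, hm2⟩ := (Nat.dvd_prime_pow hp).mp h2
      have h3 : p ∣ (S f ⊓ S h).index := hf ▸ Subgroup.index_dvd_of_le inf_le_left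
      interval_cases m
      · rw [hm2, pow_zero] at h3
        exact absurd (Nat.dvd_one.mp h3) hp1
      · exfalso
        rw [pow_one] at hm2
        have e1 := eq_of_le_of_index_eq (inf_le_left : S f ⊓ S h ≤ S f) (by rw [hm2, hf])
        have e2 := eq_of_le_of_index_eq (inf_le_right : S f ⊓ S h ≤ S h) (by rw [hm2, hh])
        exact hne (e1.symm.trans e2)
      · exact (eq_of_le_of_index_eq h1 (by rw [hAi, hm2])).ge
    have hlt : A < S (f * h) := by
      refine lt_of_le_of_ne (hA _) ?_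
      intro he
      rcases hidx (f * h) with h1 | h1
      · rw [← he] at h1
        rw [h1, Subgroup.index_top] at hAi
        exact absurd hAi.symm (by
          intro h2
          exact hp1 (Nat.eq_one_of_mul_eq_one_right (by rw [← sq]; exact h2)))
      · rw [← he, hAi] at h1
        exact hpp h1
    obtain ⟨t, ht, htA⟩ := SetLike.exists_of_lt hlt
    have hfh : φ t f * φ t h = f * h := by
      rw [← map_mul]; exact (hS _ _).mp ht
    refine ⟨t, ?_, ?_, ?_⟩
    · intro h1
      apply htA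
      apply hinf
      refine ⟨h1, ?_⟩
      show t ∈ S h
      rw [hS]
      rw [(hS f t).mp h1] at hfh
      exact mul_left_cancel hfh
    · intro h1
      apply htA
      apply hinf
      refine ⟨?_, h1⟩
      show t ∈ S f
      rw [hS]
      rw [(hS h t).mp h1] at hfh
      exact mul_right_cancel hfh
    · rw [eq_inv_iff_mul_eq_one]
      calc φ t f * f⁻¹ * (φ t h * h⁻¹) = (φ t f * φ t h) * (f * h)⁻¹ := by
            rw [mul_inv]; ac_rfl
        _ = 1 := by rw [hfh, mul_inv_cancel]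
  -- choice of `f0`, `k`
  have hAtop : A ≠ ⊤ := by
    intro h
    rw [h, Subgroup.index_top] at hAi
    exact hp1 (Nat.eq_one_of_mul_eq_one_right (by rw [← sq]; exact hAi.symm))
  obtain ⟨g0, hg0⟩ : ∃ g0, g0 ∉ A := by
    by_contra hcon
    push Not at hcon
    exact hAtop (eq_top_iff.mpr fun x _ => hcon x)
  obtain ⟨f0, hf0⟩ := hfaith g0 hg0
  have hf0top : S f0 ≠ ⊤ := fun h => hf0 (h ▸ Subgroup.mem_top _)
  have hf0i := hidx' f0 hf0top
  have hlt0 : A < S f0 := by
    refine lt_of_le_of_ne (hA _) ?_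
    intro he
    rw [← he, hAi] at hf0i
    exact hpp hf0i
  obtain ⟨s, hs, hsA⟩ := SetLike.exists_of_lt hlt0
  obtain ⟨k, hk⟩ := hfaith s hsA
  have hktop : S k ≠ ⊤ := fun h => hk (h ▸ Subgroup.mem_top _)
  have hki := hidx' k hktop
  have hne : S f0 ≠ S k := fun h => hk (h ▸ hs)
  obtain ⟨t, ht0, htk, hteq⟩ := T f0 k hf0i hki hne
  set μ : V := φ t f0 * f0⁻¹ with hμ
  have hμ1 : μ ≠ 1 := by
    intro h
    apply ht0
    rw [hS]
    exact mul_inv_eq_one.mp h
  have hμfix : ∀ g, φ g μ = μ := by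
    have h1 : S f0 ≤ S μ := by
      intro x hx
      rw [hS, hμ, map_mul, map_inv, key f0 x t hx, (hS f0 x).mp hx]
    have h2 : S k ≤ S μ := by
      intro x hx
      rw [hS, hteq, map_inv, map_mul, map_inv, key k x t hx, (hS k x).mp hx]
    have h3 : S μ = ⊤ := by
      by_contra hcon
      have h4 := hidx' μ hcon
      exact hne ((eq_of_le_of_index_eq h1 (by rw [hf0i, h4])).trans
        (eq_of_le_of_index_eq h2 (by rw [hki, h4])).symm)
    intro g
    exact (hS μ g).mp (h3 ▸ Subgroup.mem_top g)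
  have hμp : μ ^ p = 1 := by
    have hpow : ∀ i : ℕ, φ (t ^ i) f0 = μ ^ i * f0 := by
      intro i
      induction i with
      | zero => simp
      | succ i ih =>
        have h1 : φ t f0 = μ * f0 := by rw [hμ, inv_mul_cancel_right]
        calc φ (t ^ (i + 1)) f0 = φ (t ^ i) (φ t f0) := by rw [pow_succ, map_mul]; rfl
          _ = φ (t ^ i) μ * φ (t ^ i) f0 := by rw [h1, map_mul]
          _ = μ * (μ ^ i * f0) := by rw [hμfix, ih]
          _ = μ ^ (i + 1) * f0 := by rw [pow_succ]; ac_rfl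
    have h1 : t ^ p ∈ S f0 := by
      have := hnor (S f0) (hA f0)
      have h2 := Subgroup.pow_index_mem (S f0) t
      rwa [hf0i] at h2
    have h2 := hpow p
    rw [(hS f0 _).mp h1] at h2
    exact (mul_eq_right.mp h2.symm)
  have h0 := SL μ hμfix f0 hf0i t ht0 (Subgroup.mem_zpowers μ)
  have hk0 := SL μ hμfix k hki t htk (by
    have : φ t k * k⁻¹ = μ⁻¹ := by rw [hteq, inv_inv]
    rw [this]
    exact Subgroup.inv_mem _ (Subgroup.mem_zpowers μ))
  refine ⟨μ, hμ1, hμp, ?_⟩
  intro v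
  by_cases hv : S v = ⊤
  · intro g
    rw [(hS v g).mp (hv ▸ Subgroup.mem_top g), mul_inv_cancel]
    exact one_mem _
  · have hvi := hidx' v hv
    by_cases hv0 : S v = S f0
    · obtain ⟨t', h1, -, h3⟩ := T v k hvi hki (hv0 ▸ hne)
      exact SL μ hμfix v hvi t' h1 (h3 ▸ Subgroup.inv_mem _ (hk0 t'))
    · obtain ⟨t', h1, -, h3⟩ := T v f0 hvi hf0i hv0
      exact SL μ hμfix v hvi t' h1 (h3 ▸ Subgroup.inv_mem _ (h0 t'))

end Cfsg.Agent.Lib.Helper60.Cd
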