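import Mathlib
import Cfsg.Agent.Lib.Helper60.CdTaketa
import Cfsg.Agent.Lib.Helper5.ExtraChar
import Cfsg.Agent.Lib.Helper79.IrrMul
import Cfsg.Agent.Lib.Helper82.CharKer
import Cfsg.Agent.Lib.Helper60.CdAct2
import Cfsg.Agent.Lib.Helper19.GoingDown

/-!
# Character degrees `{1, p}` (Isaacs 12.11)
-/

set_option autoImplicit false
set_option linter.unusedSectionVars false

namespace Cfsg.Agent.Lib.Helper60.Cd

open Cfsg Cfsg.Agent.Lib Cfsg.Agent.Lib.Helper82 Cfsg.Agent.Lib.Helper79
open scoped ComplexConjugate commutatorElement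

/-- In a nilpotent group in which every nontrivial normal subgroup contains the commutator subgroup,
nonlinear irreducible characters are fully ramified over the centre. -/
theorem sq_degree_eq_index_center {X : Type*} [Group X] [Finite X] [Group.IsNilpotent X]
    [Nontrivial X] (hmin : ∀ N : Subgroup X, N.Normal → N ≠ ⊥ → commutator X ≤ N)
    {ψ : X → ℂ} (hψ : IsIrrCharacter X ψ) (h1 : ψ 1 ≠ 1) :
    (charDegree ψ) ^ 2 = (Subgroup.center X).index := by
  classical
  have := Fintype.ofFinite X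
  have hc : commutator X ≤ Subgroup.center X :=
    hmin _ inferInstance (Group.IsNilpotent.center_ne_bot X)
  have hker : ∀ z, ψ z = ψ 1 → z = 1 := by
    intro z hz
    by_contra hz1
    have h2 : charKer ψ (isIrr_isChar hψ) ≠ ⊥ := by
      intro h
      have : z ∈ charKer ψ (isIrr_isChar hψ) := hz
      rw [h, Subgroup.mem_bot] at this
      exact hz1 this
    have h3 := hmin _ inferInstance h2
    exact h1 ((isIrr_linear_iff hψ).mpr (fun x hx => h3 hx))
  have hvan : ∀ x, x ∉ Subgroup.center X → ψ x = 0 := by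
    intro x hx
    by_contra hne
    rw [Subgroup.mem_center_iff] at hx
    push Not at hx
    obtain ⟨y, hy⟩ := hx
    set z : X := x⁻¹ * y * x * y⁻¹ with hzdef
    have hzc : z ∈ commutator X := by
      have : z = ⁅x⁻¹, y⁆ := by
        rw [commutatorElement_def, inv_inv]
      rw [this]
      exact Subgroup.commutator_mem_commutator (Subgroup.mem_top _) (Subgroup.mem_top _)
    have hz : z ∈ Subgroup.center X := hc hzc
    have hz1 : z ≠ 1 := by
      intro h
      apply hy
      have : x⁻¹ * y * x * y⁻¹ = 1 := h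
      have h2 : x⁻¹ * y * x = y := by
        rw [mul_inv_eq_one] at this
        exact this
      calc y * x = x * (x⁻¹ * y * x) := by group
        _ = x * y := by rw [h2]
    have h2 := IsIrrCharacter.mul_central hψ z hz x
    have h3 : x * z = y * x * y⁻¹ := by
      rw [hzdef]; group
    rw [h3, isChar_conj_eq (isIrr_isChar hψ)] at h2
    have h4 : ψ z / ψ 1 = 1 := by
      have : (ψ z / ψ 1 - 1) * ψ x = 0 := by
        rw [sub_mul, one_mul, ← h2, sub_self]
      rcases mul_eq_zero.mp this with h | h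
      · exact sub_eq_zero.mp h
      · exact absurd h hne
    have h5 : ψ z = ψ 1 := by
      rw [div_eq_one_iff_eq (IsIrrCharacter.one_ne_zero hψ)] at h4
      exact h4
    exact hz1 (hker z h5)
  have h2 := Cfsg.Agent.Lib.Helper20.classInner_irr_self hψ
  unfold classInner at h2
  have h3 : ∀ g : X, ψ g * conj (ψ g) = if g ∈ Subgroup.center X then ψ 1 ^ 2 else 0 := by
    intro g
    split_ifs with hg
    · exact Helper5.central_mul_conj hψ hg
    · rw [hvan g hg, zero_mul]
  rw [Finset.sum_congr rfl (fun g _ => h3 g), Finset.sum_ite, Finset.sum_const_zero, add_zero,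
    Finset.sum_const, nsmul_eq_mul] at h2
  have h4 : (Finset.univ.filter (fun g : X => g ∈ Subgroup.center X)).card
      = Nat.card (Subgroup.center X) := by
    rw [Nat.card_eq_fintype_card, Fintype.card_subtype]
  rw [h4, isChar_one_eq (isIrr_isChar hψ)] at h2
  have h6 : (Nat.card X : ℂ) ≠ 0 := by exact_mod_cast Nat.card_pos.ne'
  rw [inv_mul_eq_one₀ h6] at h2
  have h7 : Nat.card X = Nat.card (Subgroup.center X) * charDegree ψ ^ 2 := by exact_mod_cast h2
  have h8 := (Subgroup.center X).card_mul_index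
  rw [h7] at h8
  exact (Nat.eq_of_mul_eq_mul_left Nat.card_pos h8).symm

/-- A nonabelian nilpotent group has an irreducible character `θ` and a normal subgroup `Z` of index
`θ(1)^2 ≠ 1` such that `|θ|` is constant on the cosets of `Z`. -/
theorem exists_fully_ramified {G : Type*} [Group G] [Finite G] [Group.IsNilpotent G]
    (hG : ∃ a b : G, a * b ≠ b * a) :
    ∃ (θ : IrrCharacter G) (Z : Subgroup G), Z.Normal ∧ charDegree (θ : G → ℂ) ≠ 1 ∧
      (charDegree (θ : G → ℂ)) ^ 2 = Z.index ∧
      ∀ (n : Z) (g : G), (θ : G → ℂ) (n * g) * conj ((θ : G → ℂ) (n * g))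
        = (θ : G → ℂ) g * conj ((θ : G → ℂ) g) := by
  classical
  -- a normal subgroup maximal with nonabelian quotient
  have hex : ∃ K : Subgroup G, K.Normal ∧ ¬ commutator G ≤ K := by
    refine ⟨⊥, inferInstance, ?_⟩
    intro h
    obtain ⟨a, b, hab⟩ := hG
    apply hab
    have h1 : ⁅a, b⁆ ∈ commutator G :=
      Subgroup.commutator_mem_commutator (Subgroup.mem_top _) (Subgroup.mem_top _)
    exact commutatorElement_eq_one_iff_mul_comm.mp (Subgroup.mem_bot.mp (h h1))
  obtain ⟨K, ⟨hKn, hK⟩, hmax⟩ :=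
    (Set.toFinite {K : Subgroup G | K.Normal ∧ ¬ commutator G ≤ K}).exists_maximal hex
  have hmax' : ∀ N : Subgroup G, N.Normal → K < N → commutator G ≤ N := by
    intro N hN hKN
    by_contra hcon
    exact absurd (hmax ⟨hN, hcon⟩ hKN.le) (not_le_of_gt hKN)
  have hnt : Nontrivial (G ⧸ K) := by
    by_contra hnt
    rw [not_nontrivial_iff_subsingleton] at hnt
    apply hK
    intro x _
    rw [← QuotientGroup.eq_one_iff]
    exact Subsingleton.elim _ _
  have hmin : ∀ N : Subgroup (G ⧸ K), N.Normal → N ≠ ⊥ → commutator (G ⧸ K) ≤ N := by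
    intro N hN hN0
    have h1 : K < N.comap (QuotientGroup.mk' K) := by
      refine lt_of_le_of_ne ?_ ?_
      · intro x hx
        rw [Subgroup.mem_comap]
        have : (QuotientGroup.mk' K) x = 1 := (QuotientGroup.eq_one_iff x).mpr hx
        rw [this]; exact one_mem _
      · intro h
        apply hN0
        rw [eq_bot_iff]
        intro y hy
        obtain ⟨x, rfl⟩ := QuotientGroup.mk_surjective y
        have : x ∈ N.comap (QuotientGroup.mk' K) := hy
        rw [← h] at this
        exact Subgroup.mem_bot.mpr ((QuotientGroup.eq_one_iff x).mpr this)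
    have h2 := hmax' _ (hN.comap _) h1
    rw [commutator_def, Subgroup.commutator_le]
    intro a _ b _
    obtain ⟨a, rfl⟩ := QuotientGroup.mk_surjective a
    obtain ⟨b, rfl⟩ := QuotientGroup.mk_surjective b
    have h3 : ⁅a, b⁆ ∈ N.comap (QuotientGroup.mk' K) :=
      h2 (Subgroup.commutator_mem_commutator (Subgroup.mem_top _) (Subgroup.mem_top _))
    rw [Subgroup.mem_comap, map_commutatorElement] at h3
    exact h3
  -- a nonlinear character of the quotient
  obtain ⟨ψ, hψ⟩ : ∃ ψ : IrrCharacter (G ⧸ K), charDegree (ψ : G ⧸ K → ℂ) ≠ 1 := by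
    by_contra hcon
    push Not at hcon
    have h1 := Helper5.comm_of_all_linear hcon
    apply hK
    rw [commutator_def, Subgroup.commutator_le]
    intro a _ b _
    rw [← QuotientGroup.eq_one_iff, commutatorElement_def]
    simp only [QuotientGroup.mk_mul, QuotientGroup.mk_inv]
    rw [h1 (a : G ⧸ K) (b : G ⧸ K)]; group
  have hψ1 : (ψ : G ⧸ K → ℂ) 1 ≠ 1 := by
    intro h
    apply hψ
    have := isChar_one_eq (isIrr_isChar ψ.2)
    rw [h] at this
    exact_mod_cast this.symm
  have hsq := sq_degree_eq_index_center hmin ψ.2 hψ1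
  refine ⟨⟨fun g => (ψ : G ⧸ K → ℂ) (g : G ⧸ K), isIrr_inflate ψ.2⟩,
    (Subgroup.center (G ⧸ K)).comap (QuotientGroup.mk' K), inferInstance, hψ, ?_, ?_⟩
  · rw [Subgroup.index_comap_of_surjective _ (QuotientGroup.mk'_surjective K)]
    exact hsq
  · intro n g
    have hn : ((n : G) : G ⧸ K) ∈ Subgroup.center (G ⧸ K) := n.2
    show (ψ : G ⧸ K → ℂ) (((n : G) * g : G) : G ⧸ K) * conj ((ψ : G ⧸ K → ℂ) (((n : G) * g : G) : G ⧸ K))
      = (ψ : G ⧸ K → ℂ) (g : G ⧸ K) * conj ((ψ : G ⧸ K → ℂ) (g : G ⧸ K))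
    rw [QuotientGroup.mk_mul, ← (Subgroup.mem_center_iff.mp hn) (g : G ⧸ K),
      IsIrrCharacter.mul_central ψ.2 _ hn]
    have h0 := IsIrrCharacter.one_ne_zero ψ.2
    have h2 := Helper5.central_mul_conj ψ.2 hn
    have h3 : conj ((ψ : G ⧸ K → ℂ) 1) = (ψ : G ⧸ K → ℂ) 1 := isChar_conj_one (isIrr_isChar ψ.2)
    rw [map_mul, map_div₀, h3]
    field_simp
    rw [← h2]
    ring

/-- With degrees in `{1, p}`, the subgroup `Z` of `exists_fully_ramified` is abelian. -/
theorem abelian_of_ramified {G : Type*} [Group G] [Finite G] (p : ℕ) (hp : p.Prime)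
    (hcd : ∀ χ : IrrCharacter G, charDegree (χ : G → ℂ) = 1 ∨ charDegree (χ : G → ℂ) = p)
    (θ : IrrCharacter G) (Z : Subgroup G) [hZ : Z.Normal] (hθ : charDegree (θ : G → ℂ) ≠ 1)
    (hconst : ∀ (n : Z) (g : G), (θ : G → ℂ) (n * g) * conj ((θ : G → ℂ) (n * g))
        = (θ : G → ℂ) g * conj ((θ : G → ℂ) g)) :
    ∀ a ∈ Z, ∀ b ∈ Z, a * b = b * a := by
  classical
  have := Fintype.ofFinite G
  have hθp : charDegree (θ : G → ℂ) = p := (hcd θ).resolve_left hθ
  have hlin : ∀ ψ : IrrCharacter Z, charDegree (ψ : Z → ℂ) = 1 := by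
    intro ψ
    by_contra hne
    obtain ⟨χ, hχ, hc⟩ := Helper19.exists_irr_over Z ψ.2
    obtain ⟨e, -, hdeg⟩ := Helper19.clifford_degree hZ hχ ψ.2 hc
    rw [isChar_one_eq (isIrr_isChar hχ), isChar_one_eq (isIrr_isChar ψ.2)] at hdeg
    have hdvd : charDegree (ψ : Z → ℂ) ∣ charDegree χ := by
      refine ⟨e * Set.ncard {φ : Z → ℂ | ∃ g : G, φ = Helper5.cjF hZ (ψ : Z → ℂ) g}, ?_⟩
      have : charDegree χ = e * Set.ncard {φ : Z → ℂ | ∃ g : G, φ = Helper5.cjF hZ (ψ : Z → ℂ) g}
          * charDegree (ψ : Z → ℂ) := by exact_mod_cast hdeg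
      rw [this]; ring
    have hχp : charDegree χ = p := by
      rcases hcd ⟨χ, hχ⟩ with h | h
      · exfalso
        have h' : charDegree χ = 1 := h
        rw [h'] at hdvd
        exact hne (Nat.dvd_one.mp hdvd)
      · exact h
    have hψp : charDegree (ψ : Z → ℂ) = p := by
      rw [hχp] at hdvd
      exact ((Nat.dvd_prime hp).mp hdvd).resolve_left hne
    have hres : (fun n : Z => χ n) = (ψ : Z → ℂ) :=
      eq_of_constituent_of_degree_le (Helper20.isCharacter_restrict (isIrr_isChar hχ) Z) ψ.2 hc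
        (by
          have : charDegree (fun n : Z => χ n) = charDegree χ := rfl
          rw [this, hχp, hψp])
    have hirr := isIrr_mul_of_restrict_irr Z hχ (hres ▸ ψ.2) θ.2 hconst
    have hd : charDegree (χ * (θ : G → ℂ)) = p * p := by
      have h1 := isChar_one_eq (isIrr_isChar hirr)
      rw [Pi.mul_apply, isChar_one_eq (isIrr_isChar hχ), isChar_one_eq (isIrr_isChar θ.2), hχp,
        hθp] at h1
      exact_mod_cast h1.symm
    rcases hcd ⟨_, hirr⟩ with h | h
    · have h' : charDegree (χ * (θ : G → ℂ)) = 1 := h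
      rw [hd] at h'
      exact hp.one_lt.ne' (Nat.eq_one_of_mul_eq_one_right h')
    · have h' : charDegree (χ * (θ : G → ℂ)) = p := h
      rw [hd] at h'
      have : p * p = p * 1 := by rw [mul_one]; exact h'
      exact hp.one_lt.ne' (Nat.eq_of_mul_eq_mul_left hp.pos this)
  intro a ha b hb
  exact congrArg Subtype.val (Helper5.comm_of_all_linear hlin ⟨a, ha⟩ ⟨b, hb⟩)

/-- An element fixing all linear characters of an abelian normal subgroup centralises it. -/
theorem mem_centralizer_of_forall_inertia {G : Type*} [Group G] [Finite G] (N : Subgroup G)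
    [hN : N.Normal] (hNab : ∀ a ∈ N, ∀ b ∈ N, a * b = b * a) (g : G)
    (hg : ∀ f : ↥N →* ℂˣ, g ∈ Helper5.inertia hN (Helper19.homFun f)) :
    g ∈ Subgroup.centralizer (N : Set G) := by
  rw [Subgroup.mem_centralizer_iff]
  intro n hn
  by_contra hne
  let b : N := ⟨g * n * g⁻¹, hN.conj_mem n hn g⟩ * (⟨n, hn⟩ : N)⁻¹
  have hb : b ≠ 1 := by
    intro hb1
    have h1 : (⟨g * n * g⁻¹, hN.conj_mem n hn g⟩ : N) = ⟨n, hn⟩ := mul_inv_eq_one.mp hb1
    have h2 : g * n * g⁻¹ = n := congrArg Subtype.val h1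
    apply hne
    calc n * g = (g * n * g⁻¹) * g := by rw [h2]
      _ = g * n := by group
  obtain ⟨lam, hlam⟩ := sep (fun a b : N => Subtype.ext (hNab a a.2 b b.2)) hb
  apply hlam
  have h1 := (Helper5.mem_inertia' hN (Helper19.homFun lam) g).mp (hg lam) ⟨n, hn⟩
  simp only [Helper19.homFun_apply] at h1
  have h2 : lam ⟨g * n * g⁻¹, hN.conj_mem n hn g⟩ = lam ⟨n, hn⟩ := Units.ext h1
  show lam (⟨g * n * g⁻¹, hN.conj_mem n hn g⟩ * (⟨n, hn⟩ : N)⁻¹) = 1
  rw [map_mul, map_inv, h2, mul_inv_cancel]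

/-- Degrees `{1, p}`, an abelian normal subgroup of index `p²`, none of index `p`:
the centre has index `p³`. -/
theorem index_center_of_abelian_sq {G : Type*} [Group G] [Finite G]
    (hG : ∃ a b : G, a * b ≠ b * a) (p : ℕ) (hp : p.Prime)
    (hcd : ∀ χ : IrrCharacter G, charDegree (χ : G → ℂ) = 1 ∨ charDegree (χ : G → ℂ) = p)
    (A : Subgroup G) [hA : A.Normal] (hAab : ∀ a ∈ A, ∀ b ∈ A, a * b = b * a)
    (hAi : A.index = p ^ 2)
    (hno : ¬ ∃ B : Subgroup G, B.Normal ∧ (∀ a ∈ B, ∀ b ∈ B, a * b = b * a) ∧ B.index = p) :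
    (Subgroup.center G).index = p ^ 3 := by
  classical
  have := Fintype.ofFinite G
  have := Fact.mk hp
  have hq : ∀ a b : G ⧸ A, a * b = b * a := by
    have h1 : IsMulCommutative (G ⧸ A) :=
      IsPGroup.isMulCommutative_of_card_eq_prime_sq (p := p) (by rw [← Subgroup.index_eq_card, hAi])
    exact fun a b => h1.is_comm.comm a b
  have hnor : ∀ H : Subgroup G, A ≤ H → H.Normal := by
    intro H hH
    constructor
    intro s hs g
    have h1 : g * s * g⁻¹ * s⁻¹ ∈ A := by
      rw [← QuotientGroup.eq_one_iff]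
      simp only [QuotientGroup.mk_mul, QuotientGroup.mk_inv]
      rw [hq (g : G ⧸ A) (s : G ⧸ A)]; group
    have : g * s * g⁻¹ = (g * s * g⁻¹ * s⁻¹) * s := by group
    rw [this]
    exact H.mul_mem (hH h1) hs
  have hAc : A ≤ Subgroup.centralizer (A : Set G) := by
    intro a ha
    rw [Subgroup.mem_centralizer_iff]
    intro n hn
    exact hAab n hn a ha
  have hcent : ∀ c, c ∈ Subgroup.centralizer (A : Set G) → c ∈ A := by
    intro c hc
    by_contra hcA
    set B : Subgroup G := A ⊔ Subgroup.zpowers c with hB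
    have hzc : Subgroup.zpowers c ≤ Subgroup.centralizer (A : Set G) := by
      rw [Subgroup.zpowers_le]; exact hc
    have hBB : B ≤ Subgroup.centralizer (B : Set G) := by
      apply sup_le
      · rw [Subgroup.le_centralizer_iff]
        exact sup_le hAc hzc
      · rw [Subgroup.le_centralizer_iff]
        exact sup_le (Subgroup.le_centralizer_iff.mp hzc) (Subgroup.le_centralizer _)
    have hBab : ∀ a ∈ B, ∀ b ∈ B, a * b = b * a := by
      intro a ha b hb
      exact (Subgroup.mem_centralizer_iff.mp (hBB hb)) a ha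
    have hAB : A ≤ B := le_sup_left
    have h2 : B.index ∣ p ^ 2 := hAi ▸ Subgroup.index_dvd_of_le hAB
    obtain ⟨m, hm, hm2⟩ := (Nat.dvd_prime_pow hp).mp h2
    interval_cases m
    · rw [pow_zero, Subgroup.index_eq_one] at hm2
      obtain ⟨a, b, hab⟩ := hG
      exact hab (hBab a (hm2 ▸ Subgroup.mem_top a) b (hm2 ▸ Subgroup.mem_top b))
    · exact hno ⟨B, hnor B hAB, hBab, by rw [hm2, pow_one]⟩
    · have := eq_of_le_of_index_eq hAB (by rw [hAi, hm2])
      apply hcA
      rw [this]
      exact Subgroup.mem_sup_right (Subgroup.mem_zpowers c)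
  let S : (↥A →* ℂˣ) → Subgroup G := fun f => Helper5.inertia hA (Helper19.homFun f)
  have hS : ∀ f g, g ∈ S f ↔ dualAct A g f = f := fun f g => mem_inertia_iff A g f
  have hAS : ∀ f, A ≤ S f := fun f =>
    Helper5.le_inertia hA (isChar_isClassFunction (Helper19.isCharacter_homFun f).1)
  have hfaith : ∀ g, g ∉ A → ∃ f, g ∉ S f := by
    intro g hg
    by_contra hcon
    push Not at hcon
    exact hg (hcent g (mem_centralizer_of_forall_inertia A hAab g hcon))
  have hidx : ∀ f, S f = ⊤ ∨ (S f).index = p := by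
    intro f
    have hirr : IsIrrCharacter A (Helper19.homFun f) := Helper83.isIrr_of_hom f
    obtain ⟨χ, hχ, hc⟩ := Helper19.exists_irr_over A hirr
    have h1 := Helper5.index_inertia_dvd hA hirr hχ hc
    rcases hcd ⟨χ, hχ⟩ with h | h
    · left
      have h' : charDegree χ = 1 := h
      rw [h'] at h1
      exact Subgroup.index_eq_one.mp (Nat.dvd_one.mp h1)
    · have h' : charDegree χ = p := h
      rw [h'] at h1
      rcases (Nat.dvd_prime hp).mp h1 with h2 | h2
      · exact Or.inl (Subgroup.index_eq_one.mp h2)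
      · exact Or.inr h2
  obtain ⟨μ, hμ1, hμp, hμ⟩ := exists_center_dir (dualAct A) S hS p hp A hAi hAS hnor hidx hfaith
  -- the kernel of `μ` is central
  have hker : (μ.ker).map A.subtype ≤ Subgroup.center G := by
    rintro _ ⟨a, ha, rfl⟩
    have ha' : μ a = 1 := ha
    rw [Subgroup.mem_center_iff]
    intro g
    by_contra hne
    let b : A := ⟨g * a * g⁻¹, hA.conj_mem a a.2 g⟩ * a⁻¹
    have hb : b ≠ 1 := by
      intro hb1
      have h1 : (⟨g * a * g⁻¹, hA.conj_mem a a.2 g⟩ : A) = a := mul_inv_eq_one.mp hb1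
      have h2 : g * a * g⁻¹ = a := congrArg Subtype.val h1
      apply hne
      show g * (a : G) = a * g
      calc g * (a : G) = (g * a * g⁻¹) * g := by group
        _ = a * g := by rw [h2]
    obtain ⟨lam, hlam⟩ := sep (fun a b : A => Subtype.ext (hAab a a.2 b b.2)) hb
    apply hlam
    obtain ⟨i, hi⟩ := Subgroup.mem_zpowers_iff.mp (hμ lam g⁻¹)
    have h1 := DFunLike.congr_fun hi a
    rw [MonoidHom.mul_apply, MonoidHom.inv_apply, dualAct_apply] at h1
    have h2 : (μ ^ i) a = 1 := by
      have : (μ ^ i) a = (μ a) ^ i := by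
        rcases Int.eq_nat_or_neg i with ⟨n, rfl | rfl⟩
        · simp
        · simp
      rw [this, ha', one_zpow]
    rw [h2] at h1
    show lam (⟨g * a * g⁻¹, hA.conj_mem a a.2 g⟩ * a⁻¹) = 1
    rw [map_mul, map_inv, h1]
    congr 2
    apply Subtype.ext
    simp
  have hZA : Subgroup.center G ≤ A := fun z hz => hcent z (Subgroup.center_le_centralizer _ hz)
  have hZne : ¬ A ≤ Subgroup.center G := by
    intro h
    have hAtop : A ≠ ⊤ := by
      intro h1
      rw [h1, Subgroup.index_top] at hAi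
      exact hp.one_lt.ne' (Nat.eq_one_of_mul_eq_one_right (by rw [← sq]; exact hAi.symm))
    obtain ⟨g0, hg0⟩ : ∃ g0, g0 ∉ A := by
      by_contra hcon
      push Not at hcon
      exact hAtop (eq_top_iff.mpr fun x _ => hcon x)
    apply hg0
    apply hcent
    rw [Subgroup.mem_centralizer_iff]
    intro n hn
    exact ((Subgroup.mem_center_iff.mp (h hn)) g0).symm
  have h1 : (Subgroup.center G).relIndex A ∣ ((μ.ker).map A.subtype).relIndex A :=
    Subgroup.relIndex_dvd_of_le_left A hker
  have h2 : ((μ.ker).map A.subtype).relIndex A = Nat.card μ.range := by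
    rw [← Subgroup.index_ker]
    unfold Subgroup.relIndex Subgroup.subgroupOf
    rw [Subgroup.comap_map_eq_self_of_injective A.subtype_injective]
  have h3 : Nat.card μ.range ∣ p := by
    have h4 : μ.range ≤ rootsOfUnity p ℂ := by
      rintro _ ⟨a, rfl⟩
      rw [mem_rootsOfUnity, ← MonoidHom.pow_apply, hμp]
      rfl
    have : NeZero p := ⟨hp.ne_zero⟩
    have h5 := Subgroup.card_dvd_of_le h4
    rwa [Complex.card_rootsOfUnity] at h5
  have h4 : (Subgroup.center G).relIndex A = p := by
    rw [h2] at h1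
    rcases (Nat.dvd_prime hp).mp (h1.trans h3) with h | h
    · exact absurd (Subgroup.relIndex_eq_one.mp h) hZne
    · exact h
  rw [← Subgroup.relIndex_mul_index hZA, h4, hAi]
  ring

/-- `χ(1)² ≤ |G : Z(G)|`. -/
theorem sq_degree_le_index_center {G : Type*} [Group G] [Finite G] (χ : IrrCharacter G) :
    (charDegree (χ : G → ℂ)) ^ 2 ≤ (Subgroup.center G).index := by
  classical
  have := Fintype.ofFinite G
  apply Helper19.restrict_norm_le (Subgroup.center G) χ.2
  unfold classInner
  have h1 : ∀ z : Subgroup.center G, (χ : G → ℂ) z * conj ((χ : G → ℂ) z) = (χ : G → ℂ) 1 ^ 2 :=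
    fun z => Helper5.central_mul_conj χ.2 z.2
  rw [Finset.sum_congr rfl (fun z _ => h1 z), Finset.sum_const, Finset.card_univ, nsmul_eq_mul,
    ← Nat.card_eq_fintype_card, ← mul_assoc, inv_mul_cancel₀ (by exact_mod_cast Nat.card_pos.ne'),
    one_mul, isChar_one_eq (isIrr_isChar χ.2)]
  push_cast
  rfl

/-- **Isaacs 12.11.** -/
theorem degrees_one_p_iff {G : Type*} [Group G] [Finite G] (hG : ∃ a b : G, a * b ≠ b * a) (p : ℕ)
    (hp : p.Prime) :
    ((∀ χ : IrrCharacter G, charDegree (χ : G → ℂ) = 1 ∨ charDegree (χ : G → ℂ) = p) ∧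
      ∃ χ : IrrCharacter G, charDegree (χ : G → ℂ) = p) ↔
    ((∃ A : Subgroup G, A.Normal ∧ (∀ a ∈ A, ∀ b ∈ A, a * b = b * a) ∧ A.index = p) ∨
      (Subgroup.center G).index = p ^ 3) := by
  classical
  constructor
  · rintro ⟨hcd, hm⟩
    by_cases hno : ∃ B : Subgroup G, B.Normal ∧ (∀ a ∈ B, ∀ b ∈ B, a * b = b * a) ∧ B.index = p
    · exact Or.inl hno
    · right
      rcases two_degrees' p hcd hm hp.one_lt.ne' with h | hnil
      · exact absurd h hno
      · obtain ⟨θ, Z, hZ, hθ, hsq, hconst⟩ := exists_fully_ramified hG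
        have hθp : charDegree (θ : G → ℂ) = p := (hcd θ).resolve_left hθ
        have hZab := abelian_of_ramified p hp hcd θ Z hθ hconst
        exact index_center_of_abelian_sq hG p hp hcd Z hZab (by rw [← hsq, hθp]) hno
  · intro h
    have hcd : ∀ χ : IrrCharacter G, charDegree (χ : G → ℂ) = 1 ∨ charDegree (χ : G → ℂ) = p := by
      intro χ
      rcases h with ⟨A, hA, hAab, hAi⟩ | hZ
      · have h1 := ito A hAab χ
        rw [hAi] at h1
        exact (Nat.dvd_prime hp).mp h1
      · have h1 := ito (Subgroup.center G)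
          (fun a _ b hb => (Subgroup.mem_center_iff.mp hb a)) χ
        have h2 := sq_degree_le_index_center χ
        rw [hZ] at h1 h2
        obtain ⟨j, hj, hj2⟩ := (Nat.dvd_prime_pow hp).mp h1
        rw [hj2, ← pow_mul] at h2
        have h3 : j * 2 ≤ 3 := (Nat.pow_le_pow_iff_right hp.one_lt).mp h2
        have h4 : j = 0 ∨ j = 1 := by omega
        rcases h4 with rfl | rfl
        · left; rw [hj2, pow_zero]
        · right; rw [hj2, pow_one]
    refine ⟨hcd, ?_⟩
    by_contra hcon
    push Not at hcon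
    obtain ⟨a, b, hab⟩ := hG
    exact hab (Helper5.comm_of_all_linear (fun χ => (hcd χ).resolve_right (hcon χ)) a b)

end Cfsg.Agent.Lib.Helper60.Cd
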