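import Mathlib

set_option autoImplicit false

namespace Cfsg.Agent.Lib.Helper60

open MulAction
open scoped Pointwise

/-- If all point stabilizers have the same order `k`, then `|A|` divides `k * |X|`. -/
theorem card_dvd_of_stabilizer_card {A X : Type*} [Group A] [Finite A] [MulAction A X] [Finite X]
    (k : ℕ) (h : ∀ x : X, Nat.card (stabilizer A x) = k) : Nat.card A ∣ k * Nat.card X := by
  classical
  have := Fintype.ofFinite (orbitRel.Quotient A X)
  have e := selfEquivSigmaOrbitsQuotientStabilizer A X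
  rw [Nat.card_congr e, Nat.card_sigma, Finset.mul_sum]
  apply Finset.dvd_sum
  intro ω _
  have h1 := Subgroup.card_mul_index (stabilizer A (Quotient.out ω))
  rw [h] at h1
  rw [← Subgroup.index_eq_card, h1]

/-- Version for an invariant subset `Δ` and a subgroup `A₁` containing the point stabilizers. -/
theorem card_dvd_of_stabilizer_card_subset {A X : Type*} [Group A] [Finite A] [MulAction A X]
    [Finite X] (k : ℕ) (Δ : Set X) (A₁ : Subgroup A) (hinv : ∀ g ∈ A₁, ∀ b ∈ Δ, g • b ∈ Δ)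
    (hle : ∀ b ∈ Δ, stabilizer A b ≤ A₁) (hk : ∀ b ∈ Δ, Nat.card (stabilizer A b) = k) :
    Nat.card A₁ ∣ k * Nat.card Δ := by
  classical
  let S : SubMulAction A₁ X :=
    { carrier := Δ
      smul_mem' := fun g b hb => hinv g g.2 b hb }
  have hS : Nat.card S = Nat.card Δ := rfl
  rw [← hS]
  apply card_dvd_of_stabilizer_card
  intro x
  have hx : (x : X) ∈ Δ := x.2
  rw [← hk x hx]
  have heq : stabilizer A₁ x = (stabilizer A (x : X)).subgroupOf A₁ := by
    ext g
    rw [mem_stabilizer_iff, Subgroup.mem_subgroupOf, mem_stabilizer_iff]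
    constructor
    · intro h
      exact congrArg Subtype.val h
    · intro h
      exact Subtype.ext h
  rw [heq]
  exact Nat.card_congr (Subgroup.subgroupOfEquivOfLe (hle x hx)).toEquiv

/-- Key lemma for half-transitive actions with a fixed point `a`. -/
theorem stabilizer_eq_of_half_transitive {A X : Type*} [Group A] [Finite A] [MulAction A X]
    [Finite X] (a : X) (hfix : ∀ g : A, g • a = a) (k : ℕ)
    (hk : ∀ b : X, b ≠ a → Nat.card (stabilizer A b) = k)
    (Δ : Set X) (ha : a ∉ Δ) (hdvd : Nat.card Δ ∣ Nat.card X)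
    (hinv : ∀ b ∈ Δ, ∀ g ∈ stabilizer A b, ∀ b' ∈ Δ, g • b' ∈ Δ) :
    ∀ b ∈ Δ, ∀ b' ∈ Δ, stabilizer A b = stabilizer A b' := by
  classical
  have hne : ∀ b ∈ Δ, b ≠ a := fun b hb h => ha (h ▸ hb)
  -- |A| ∣ k (|X| - 1)
  have h1 : Nat.card A ∣ k * (Nat.card X - 1) := by
    have := card_dvd_of_stabilizer_card_subset k ({a}ᶜ : Set X) (⊤ : Subgroup A)
      (fun g _ b hb h => hb (by
        have : g • b = g • a := by rw [hfix g]; exact h
        exact smul_left_cancel g this))
      (fun _ _ => le_top) (fun b hb => hk b hb)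
    rw [Subgroup.card_top] at this
    have hc : Nat.card ({a}ᶜ : Set X) = Nat.card X - 1 := by
      rw [Nat.card_coe_set_eq, Set.ncard_compl, Set.ncard_singleton]
    rwa [hc] at this
  set A₁ : Subgroup A := stabilizer A Δ with hA₁
  have hmem : ∀ g ∈ A₁, ∀ b ∈ Δ, g • b ∈ Δ := fun g hg b hb =>
    ((mem_stabilizer_set.mp hg) b).mpr hb
  have hle : ∀ b ∈ Δ, stabilizer A b ≤ A₁ := by
    intro b hb g hg
    rw [hA₁, mem_stabilizer_set_iff_smul_set_subset Δ.toFinite]
    rintro _ ⟨b', hb', rfl⟩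
    exact hinv b hb g hg b' hb'
  have h2 := card_dvd_of_stabilizer_card_subset k Δ A₁ hmem hle (fun b hb => hk b (hne b hb))
  have key : ∀ b ∈ Δ, stabilizer A b = A₁ := by
    intro b hb
    have hkb := hk b (hne b hb)
    have hkpos : 0 < k := hkb ▸ Nat.card_pos
    obtain ⟨t, ht⟩ : k ∣ Nat.card A₁ := hkb ▸ Subgroup.card_dvd_of_le (hle b hb)
    have ht1 : t ∣ Nat.card Δ := by
      rw [ht] at h2
      exact Nat.dvd_of_mul_dvd_mul_left hkpos h2
    have ht2 : t ∣ Nat.card X - 1 := by
      have h3 : Nat.card A₁ ∣ Nat.card A := Subgroup.card_subgroup_dvd_card A₁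
      rw [ht] at h3
      exact Nat.dvd_of_mul_dvd_mul_left hkpos (h3.trans h1)
    have ht3 : t ∣ Nat.card X := ht1.trans hdvd
    have hXpos : 0 < Nat.card X := Nat.card_pos_iff.mpr ⟨⟨a⟩, inferInstance⟩
    have ht4 : t ∣ 1 := by
      have := (Nat.dvd_sub ht3 ht2)
      rwa [Nat.sub_sub_self hXpos] at this
    have ht5 : t = 1 := Nat.dvd_one.mp ht4
    rw [ht5, mul_one] at ht
    exact Subgroup.eq_of_le_of_card_ge (hle b hb) (by rw [hkb, ht])
  intro b hb b' hb'
  rw [key b hb, key b' hb']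

end Cfsg.Agent.Lib.Helper60
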